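import Cfsg.Agent.H5.Complete

/-!
Multiplicity-free representations: the centraliser algebra is spanned by the central elements
`∑ g, ψ g⁻¹ • ρ g`; a representation is multiplicity-free iff its centraliser algebra is
commutative.
-/

set_option autoImplicit false
open Cfsg Module

namespace Cfsg.Agent.H25

variable {G : Type*} [Group G] [Fintype G]

theorem sum_irr_inv_mul_char_mul {θ ψ : G → ℂ} (hθ : IsCharacter G θ) (hψ : IsIrrCharacter G ψ)
    (h : G) : ∑ g, ψ g⁻¹ * θ (g * h) = classInner θ ψ * ((Nat.card G : ℂ) * ψ h / ψ 1) := by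
  classical
  conv_lhs => rw [H5.isCharacter_eq_sum hθ]
  simp only [Finset.sum_apply, Pi.smul_apply, smul_eq_mul, Finset.mul_sum]
  rw [Finset.sum_comm, Finset.sum_eq_single ⟨ψ, hψ⟩]
  · simp only [mul_left_comm (ψ _⁻¹), ← Finset.mul_sum]
    rw [H5.sum_irr_inv_mul_irr_mul hψ hψ, if_pos rfl]
  · intro χ _ hχ
    simp only [mul_left_comm (ψ _⁻¹), ← Finset.mul_sum]
    rw [H5.sum_irr_inv_mul_irr_mul χ.2 hψ, if_neg fun h => hχ (Subtype.ext h), mul_zero]
  · simp

variable {V : Type*} [AddCommGroup V] [Module ℂ V] [FiniteDimensional ℂ V]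

omit [Fintype G] [FiniteDimensional ℂ V] in
theorem mem_linHom_invariants_iff {ρ : Representation ℂ G V} {T : V →ₗ[ℂ] V} :
    T ∈ (ρ.linHom ρ).invariants ↔ ∀ g, T * ρ g = ρ g * T := by
  rw [Representation.mem_invariants]
  simp only [Representation.linHom_apply, Representation.mem_linHom_invariants_iff_isIntertwining]
  exact ⟨fun h g => LinearMap.ext fun v => h.1 g v, fun h => ⟨fun g v => LinearMap.congr_fun (h g) v⟩⟩

/-- In a multiplicity-free representation every intertwiner is a combination of the central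
elements attached to the constituents. -/
theorem exists_eq_sum_of_multFree (ρ : Representation ℂ G V)
    (hρ : ∀ χ : G → ℂ, IsIrrCharacter G χ →
      classInner ρ.character χ = 0 ∨ classInner ρ.character χ = 1)
    (T : Module.End ℂ V) (hT : ∀ g, T * ρ g = ρ g * T) :
    ∃ c : {ψ : IrrCharacter G // classInner ρ.character ψ ≠ 0} → ℂ,
      T = ∑ ψ, c ψ • ∑ g, (ψ.1 : G → ℂ) g⁻¹ • ρ g := by
  classical
  let ι := {ψ : IrrCharacter G // classInner ρ.character ψ ≠ 0}
  let v : ι → (ρ.linHom ρ).invariants := fun ψ => ⟨∑ g, (ψ.1 : G → ℂ) g⁻¹ • ρ g,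
    mem_linHom_invariants_iff.mpr (H5.sum_smul_comm_of_isClassFunction ρ
      (H5.isClassFunction_of_isCharacter
        (H5.isCharacter_comp_inv (H5.isCharacter_of_isIrr ψ.1.2))))⟩
  have hli : LinearIndependent ℂ v := by
    rw [Fintype.linearIndependent_iff]
    intro c hc ψ
    have h1 : ∑ φ : ι, c φ • ∑ g, (φ.1 : G → ℂ) g⁻¹ • ρ g = 0 := by
      simpa [v] using congrArg Subtype.val hc
    have h2 : ∑ φ : ι, (c φ * (classInner ρ.character φ.1 * Nat.card G / (φ.1 : G → ℂ) 1)) •
        (φ.1 : G → ℂ) = 0 := by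
      ext h
      have h3 := congrArg (fun S => LinearMap.trace ℂ V (S * ρ h)) h1
      simp only [Finset.sum_mul, smul_mul_assoc, ← map_mul, map_sum, map_smul, smul_eq_mul,
        zero_mul, map_zero] at h3
      simp only [Finset.sum_apply, Pi.smul_apply, smul_eq_mul, Pi.zero_apply]
      refine Eq.trans (Finset.sum_congr rfl fun φ _ => ?_) h3
      have h4 := sum_irr_inv_mul_char_mul (H5.isCharacter_character ρ) φ.1.2 h
      change _ = c φ * ∑ g, (φ.1 : G → ℂ) g⁻¹ * ρ.character (g * h)
      rw [h4]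
      ring
    have h3 := Fintype.linearIndependent_iff.mp
      (H5.linearIndependent_irr.comp (Subtype.val : ι → IrrCharacter G) Subtype.val_injective)
      _ h2 ψ
    exact (mul_eq_zero.mp h3).resolve_right (div_ne_zero (mul_ne_zero ψ.2 H5.natCard_ne_zero)
      (H5.degree_ne_zero ψ.1.2))
  have hcard : Fintype.card ι = finrank ℂ (ρ.linHom ρ).invariants := by
    have h1 := H5.classInner_character ρ ρ
    rw [← (Representation.invariantsEquivIntertwiningMap _ _).finrank_eq] at h1
    have h2 := H5.classInner_sum_smul_sum_smul (fun ψ : IrrCharacter G => classInner ρ.character ψ)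
      (fun ψ : IrrCharacter G => classInner ρ.character ψ)
    rw [← H5.isCharacter_eq_sum (H5.isCharacter_character ρ), h1,
      Finset.sum_congr rfl (g := fun ψ : IrrCharacter G =>
        if classInner ρ.character ψ ≠ 0 then 1 else 0) fun ψ _ => by
          rcases hρ ψ ψ.2 with h | h <;> simp [h], Finset.sum_boole] at h2
    rw [Fintype.card_subtype]
    exact_mod_cast h2.symm
  have hspan := hli.span_eq_top_of_card_eq_finrank' hcard
  have hmem : (⟨T, mem_linHom_invariants_iff.mpr hT⟩ : (ρ.linHom ρ).invariants) ∈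
      Submodule.span ℂ (Set.range v) := by rw [hspan]; trivial
  obtain ⟨c, hc⟩ := (Submodule.mem_span_range_iff_exists_fun ℂ).mp hmem
  exact ⟨c, by simpa [v] using (congrArg Subtype.val hc).symm⟩

theorem comm_of_multFree (ρ : Representation ℂ G V)
    (hρ : ∀ χ : G → ℂ, IsIrrCharacter G χ →
      classInner ρ.character χ = 0 ∨ classInner ρ.character χ = 1)
    (S T : Module.End ℂ V) (hS : ∀ g, S * ρ g = ρ g * S) (hT : ∀ g, T * ρ g = ρ g * T) :
    S * T = T * S := by
  obtain ⟨c, rfl⟩ := exists_eq_sum_of_multFree ρ hρ T hT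
  simp only [Finset.mul_sum, Finset.sum_mul, mul_smul_comm, smul_mul_assoc, hS]

theorem exists_equivariant_leftInverse {W : Type*} [AddCommGroup W] [Module ℂ W]
    {σ : Representation ℂ G W} {V : Type*} [AddCommGroup V] [Module ℂ V] {ρ : Representation ℂ G V}
    (f : σ.IntertwiningMap ρ) (hf : Function.Injective f) :
    ∃ p : V →ₗ[ℂ] W, (∀ w, p (f w) = w) ∧ ∀ g v, p (ρ g v) = σ g (p v) := by
  obtain ⟨q, hq⟩ := LinearMap.exists_leftInverse_of_injective f.toLinearMap
    (LinearMap.ker_eq_bot.mpr hf)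
  have hq' : ∀ w, q (f w) = w := fun w => LinearMap.congr_fun hq w
  refine ⟨(Nat.card G : ℂ)⁻¹ • ∑ g, σ g ∘ₗ q ∘ₗ ρ g⁻¹, fun w => ?_, fun h v => ?_⟩
  · simp only [LinearMap.smul_apply, LinearMap.sum_apply, LinearMap.comp_apply,
      ← f.isIntertwining, hq', Representation.self_inv_apply, Finset.sum_const,
      Finset.card_univ]
    rw [← Nat.cast_smul_eq_nsmul ℂ, smul_smul, ← Nat.card_eq_fintype_card,
      inv_mul_cancel₀ H5.natCard_ne_zero, one_smul]
  · simp only [LinearMap.smul_apply, LinearMap.sum_apply, LinearMap.comp_apply, map_smul, map_sum]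
    congr 1
    refine (Fintype.sum_equiv (Equiv.mulLeft h) _ _ fun g => ?_).symm
    simp only [Equiv.coe_mulLeft, map_mul, mul_inv_rev, Module.End.mul_apply,
      Representation.inv_self_apply]

theorem multFree_of_comm (ρ : Representation ℂ G V)
    (h : ∀ S T : Module.End ℂ V, (∀ g, S * ρ g = ρ g * S) → (∀ g, T * ρ g = ρ g * T) →
      S * T = T * S) (χ : G → ℂ) (hχ : IsIrrCharacter G χ) :
    classInner ρ.character χ = 0 ∨ classInner ρ.character χ = 1 := by
  obtain ⟨n, σ, hσ, rfl⟩ := hχ
  rw [H5.classInner_character]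
  suffices finrank ℂ (σ.IntertwiningMap ρ) ≤ 1 by
    rcases Nat.le_one_iff_eq_zero_or_eq_one.mp this with h | h <;> simp [h]
  by_cases h0 : ∀ f : σ.IntertwiningMap ρ, f = 0
  · exact finrank_le_one (0 : σ.IntertwiningMap ρ) fun w => ⟨0, by rw [h0 w, smul_zero]⟩
  push Not at h0
  obtain ⟨f₁, hf₁⟩ := h0
  refine finrank_le_one f₁ fun f₂ => ?_
  obtain ⟨p, hp, hpg⟩ := exists_equivariant_leftInverse f₁
    ((Representation.IsIrreducible.injective_or_eq_zero f₁).resolve_right hf₁)
  have hc : ∀ f : σ.IntertwiningMap ρ, ∀ g,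
      (f.toLinearMap ∘ₗ p) * ρ g = ρ g * (f.toLinearMap ∘ₗ p) := fun f g =>
    LinearMap.ext fun v => by
      simp only [Module.End.mul_apply, LinearMap.comp_apply, hpg,
        Representation.IntertwiningMap.toLinearMap_apply, f.isIntertwining]
  obtain ⟨c, hc'⟩ := H5.exists_scalar_of_comm σ (p ∘ₗ f₂.toLinearMap) fun g =>
    LinearMap.ext fun v => by
      simp only [Module.End.mul_apply, LinearMap.comp_apply, hpg,
        Representation.IntertwiningMap.toLinearMap_apply, f₂.isIntertwining]
  refine ⟨c, Representation.IntertwiningMap.ext (LinearMap.ext fun w => ?_)⟩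
  have h1 := LinearMap.congr_fun (h _ _ (hc f₁) (hc f₂)) (f₁ w)
  have h2 := LinearMap.congr_fun hc' w
  simp only [Module.End.mul_apply, LinearMap.comp_apply, hp,
    Representation.IntertwiningMap.toLinearMap_apply, LinearMap.smul_apply,
    Module.End.one_apply] at h1 h2
  rw [h2, map_smul] at h1
  exact h1

end Cfsg.Agent.H25
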